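import Cfsg.Prelude.Def_SolvableStructure
import Cfsg.Agent.SolvStr.Product
import Cfsg.Agent.SolvStr.Supersolvable
import Cfsg.Agent.Solv.Hall
import Cfsg.Agent.Loc.PGrp
import Cfsg.Agent.S0045

/-! Hall complement systems, system normalizers and Carter subgroups (helper4): Chinese remainder
lemma for subgroups of coprime indices (`exists_forall_inv_mul_mem`), conjugacy of complement
systems, system normalizers are nilpotent, pass to quotients, cover central and avoid eccentric
chief factors, lie in Carter subgroups; overgroups of Carter subgroups are self-normalising. -/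

namespace Cfsg.Agent.SolvStr

open Subgroup Pointwise Cfsg.Agent.Solv

universe u

variable {G : Type*} [Group G]

theorem relIndex_dvd_index_of_isProd [Finite G] {A B S : Subgroup G} (h : IsProd A B S) :
    B.relIndex A ∣ B.index := h.relIndex_eq ▸ relIndex_dvd_index_of_le h.right_le

theorem exists_forall_inv_mul_mem_finset [Finite G] {ι : Type*} (N : ι → Subgroup G)
    (h : Pairwise fun i j => (N i).index.Coprime (N j).index) (g : ι → G) (T : Finset ι) :
    (⨅ i ∈ T, N i).index = ∏ i ∈ T, (N i).index ∧ ∃ x : G, ∀ i ∈ T, (g i)⁻¹ * x ∈ N i := by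
  classical
  induction T using Finset.induction_on with
  | empty => simp
  | insert j T hj ih =>
    obtain ⟨h1, x, hx⟩ := ih
    have hc : (⨅ i ∈ T, N i).index.Coprime (N j).index := by
      rw [h1]
      exact Nat.Coprime.prod_left fun i hi => h (fun e => hj (e ▸ hi))
    refine ⟨by rw [Finset.iInf_insert, index_inf_of_coprime hc.symm, h1, Finset.prod_insert hj], ?_⟩
    obtain ⟨d, hd, n, hn, e⟩ := isProd_top_iff.1 (isProd_top_of_coprime_index hc) (x⁻¹ * g j)
    refine ⟨x * d, fun i hi => ?_⟩
    rcases Finset.mem_insert.1 hi with rfl | hi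
    · have : (g i)⁻¹ * (x * d) = n⁻¹ := by
        calc _ = (x⁻¹ * g i)⁻¹ * d := by group
          _ = _ := by rw [e]; group
      rw [this]
      exact inv_mem hn
    · rw [← mul_assoc]
      exact mul_mem (hx i hi) (mem_iInf.1 (mem_iInf.1 hd i) hi)

/-- Chinese remainder theorem for subgroups of prime power indices. -/
theorem exists_forall_inv_mul_mem [Finite G] (N : Nat.Primes → Subgroup G)
    (h : ∀ p : Nat.Primes, ∃ k, (N p).index = (p : ℕ) ^ k) (g : Nat.Primes → G) :
    ∃ x : G, ∀ p, (g p)⁻¹ * x ∈ N p := by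
  classical
  obtain ⟨-, x, hx⟩ := exists_forall_inv_mul_mem_finset N (fun p q hpq => by
    obtain ⟨k, hk⟩ := h p
    obtain ⟨l, hl⟩ := h q
    rw [hk, hl]
    exact Nat.coprime_pow_primes k l p.2 q.2 (fun e => hpq (Subtype.ext e))) g
    ((Nat.card G).primeFactors.subtype Nat.Prime)
  refine ⟨x, fun p => ?_⟩
  by_cases hp : (p : ℕ) ∣ Nat.card G
  · exact hx p (Finset.mem_subtype.2 (Nat.mem_primeFactors.2 ⟨p.2, hp, Nat.card_pos.ne'⟩))
  · obtain ⟨k, hk⟩ := h p
    rcases Nat.eq_zero_or_pos k with rfl | hk0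
    · rw [pow_zero, index_eq_one] at hk
      rw [hk]
      exact mem_top _
    · exact absurd ((dvd_pow_self _ hk0.ne').trans (hk ▸ (N p).index_dvd_card)) hp

theorem isComplementSystem_iff [Finite G] {K : Nat.Primes → Subgroup G} :
    IsComplementSystem K ↔ ∀ p : Nat.Primes, IsPiHall {(p : ℕ)}ᶜ (K p) :=
  forall_congr' fun p => (isPiHall_compl_singleton_iff_index p.2).symm

theorem exists_isComplementSystem (G : Type*) [Group G] [Finite G] [Group.IsSolvable G] :
    ∃ K : Nat.Primes → Subgroup G, IsComplementSystem K := by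
  choose K hK using fun p : Nat.Primes => (HallOK.of_isSolvable {(p : ℕ)}ᶜ G).exists_hall
  exact ⟨K, isComplementSystem_iff.2 hK⟩

theorem mem_systemNormalizer {K : Nat.Primes → Subgroup G} {x : G} :
    x ∈ systemNormalizer K ↔ ∀ p, x ∈ normalizer (K p : Set G) := mem_iInf

theorem systemNormalizer_le (K : Nat.Primes → Subgroup G) (p : Nat.Primes) :
    systemNormalizer K ≤ normalizer (K p : Set G) := iInf_le _ p

theorem exists_pow_of_dvd_index {K : Nat.Primes → Subgroup G} (hK : IsComplementSystem K)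
    (p : Nat.Primes) {m : ℕ} (h : m ∣ (K p).index) : ∃ k, m = (p : ℕ) ^ k := by
  rw [hK p] at h
  obtain ⟨k, -, e⟩ := (Nat.dvd_prime_pow p.2).1 h
  exact ⟨k, e⟩

theorem exists_conj_system [Finite G] [Group.IsSolvable G] {K L : Nat.Primes → Subgroup G}
    (hK : IsComplementSystem K) (hL : IsComplementSystem L) :
    ∃ g : G, ∀ p : Nat.Primes, MulAut.conj g • K p = L p := by
  choose g hg using fun p : Nat.Primes => (HallOK.of_isSolvable {(p : ℕ)}ᶜ G).exists_conj_eq
    (isComplementSystem_iff.1 hK p) (isComplementSystem_iff.1 hL p)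
  obtain ⟨x, hx⟩ := exists_forall_inv_mul_mem (fun p => normalizer (K p : Set G))
    (fun p => exists_pow_of_dvd_index hK p (index_dvd_of_le le_normalizer)) g
  refine ⟨x, fun p => ?_⟩
  rw [← hg p, ← mul_inv_cancel_left (g p) x, ← conj_smul_conj_smul,
    conj_smul_eq_self_iff.2 (hx p)]

theorem systemNormalizer_conj (K : Nat.Primes → Subgroup G) (g : G) :
    systemNormalizer (fun p => MulAut.conj g • K p) = MulAut.conj g • systemNormalizer K := by
  ext x
  simp only [mem_systemNormalizer, normalizer_conj_smul, mem_conj_smul]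

theorem isNilpotent_systemNormalizer [Finite G] {K : Nat.Primes → Subgroup G}
    (hK : IsComplementSystem K) : Group.IsNilpotent (systemNormalizer K) := by
  refine isNilpotent_of_forall_sylow_normal fun p hp P => ?_
  have hn : ∀ q, ((K q).subgroupOf (systemNormalizer K)).Normal := fun q =>
    normal_subgroupOf_of_le_normalizer (systemNormalizer_le K q)
  set E : Subgroup (systemNormalizer K) :=
    ⨅ q : {q : Nat.Primes // (q : ℕ) ≠ p}, (K q).subgroupOf (systemNormalizer K) with hE
  have h1 : (P : Subgroup (systemNormalizer K)) ≤ E := by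
    refine le_iInf fun q => le_of_coprime_index (coprime_card_of_isPGroup P.isPGroup' ?_)
    obtain ⟨k, hk⟩ := exists_pow_of_dvd_index hK q (relIndex_dvd_index_of_isProd
      (isProd_sup_of_le_normalizer (systemNormalizer_le K q)).symm)
    change ((K q).relIndex (systemNormalizer K)).Coprime p
    rw [hk]
    exact ((Nat.coprime_primes q.1.2 hp.out).2 q.2).pow_left k
  have h2 : IsPGroup p E := by
    rw [← isPiNum_card_singleton_iff]
    intro q hq hd
    by_contra hne
    have h3 : E ≤ (K ⟨q, hq⟩).subgroupOf (systemNormalizer K) :=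
      iInf_le_of_le (⟨⟨q, hq⟩, hne⟩ : {q : Nat.Primes // (q : ℕ) ≠ p}) le_rfl
    have h4 := (isPiHall_iff.1 (isComplementSystem_iff.1 hK ⟨q, hq⟩)).1.card_subgroupOf
      (systemNormalizer K)
    exact h4 q hq (hd.trans (card_dvd_of_le h3)) rfl
  rw [← P.is_maximal' h2 h1]
  exact normal_iInf_normal fun q => hn q

theorem isPiHall_map [Finite G] {G' : Type*} [Group G'] {π : Set ℕ} {H : Subgroup G}
    (h : IsPiHall π H) {f : G →* G'} (hf : Function.Surjective f) : IsPiHall π (H.map f) := by
  have := HallOf.map (isPiHallOf_top_iff.2 h) f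
  rwa [map_top_of_surjective f hf, isPiHallOf_top_iff] at this

theorem isComplementSystem_map [Finite G] {G' : Type*} [Group G'] {K : Nat.Primes → Subgroup G}
    (hK : IsComplementSystem K) {f : G →* G'} (hf : Function.Surjective f) :
    IsComplementSystem (fun p => (K p).map f) :=
  have := Finite.of_surjective f hf
  isComplementSystem_iff.2 fun p => isPiHall_map (isComplementSystem_iff.1 hK p) hf

theorem systemNormalizer_map [Finite G] [Group.IsSolvable G] {G' : Type*} [Group G']
    {K : Nat.Primes → Subgroup G} (hK : IsComplementSystem K) {f : G →* G'}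
    (hf : Function.Surjective f) :
    systemNormalizer (fun p => (K p).map f) = (systemNormalizer K).map f := by
  refine le_antisymm ?_ (le_iInf fun p =>
    (map_mono (systemNormalizer_le K p)).trans (le_normalizer_map f))
  intro y hy
  obtain ⟨g, rfl⟩ := hf y
  have h1 : ∀ p : Nat.Primes, ∃ n : f.ker, (n : G)⁻¹ * g ∈ normalizer (K p : Set G) := by
    intro p
    have h2 : g ∈ normalizer ((K p ⊔ f.ker : Subgroup G) : Set G) := by
      rw [← comap_map_eq]
      exact le_normalizer_comap f (mem_systemNormalizer.1 hy p)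
    obtain ⟨m, hm, n, hn, e⟩ := (HallOK.of_isSolvable {(p : ℕ)}ᶜ (K p ⊔ f.ker : Subgroup G)).frattini
      (HallOf.mono (isPiHallOf_top_iff.2 (isComplementSystem_iff.1 hK p)) le_sup_left le_top) h2
    rw [sup_comm] at hm
    obtain ⟨a, ha, k, hk, rfl⟩ := (mem_sup_left_of_le_normalizer le_normalizer_of_normal).1 hm
    refine ⟨⟨a, ha⟩, ?_⟩
    rw [← e, mul_assoc, inv_mul_cancel_left]
    exact mul_mem (le_normalizer hk) hn
  choose n hn using h1
  obtain ⟨x, hx⟩ := exists_forall_inv_mul_mem
    (fun p => (normalizer (K p : Set G)).subgroupOf f.ker) (fun p => exists_pow_of_dvd_index hK p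
      ((relIndex_dvd_index_of_isProd (isProd_sup_of_le_normalizer le_normalizer_of_normal)).trans
        (index_dvd_of_le le_normalizer))) n
  refine ⟨(x : G)⁻¹ * g, mem_systemNormalizer.2 fun p => ?_, by simp [(MonoidHom.mem_ker).1 x.2]⟩
  have h3 : ((n p : G)⁻¹ * x) ∈ normalizer (K p : Set G) := hx p
  convert mul_mem (inv_mem h3) (hn p) using 1
  group

/-- A Hall `p'`-subgroup has no fixed points on a non-central minimal normal `p`-subgroup. -/
theorem inf_centralizer_hall_eq_bot [Finite G] [Group.IsSolvable G] {p : ℕ} [hp : Fact p.Prime]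
    {B K : Subgroup G} [B.Normal] (hB : IsPGroup p B)
    (hmin : ∀ L : Subgroup G, L.Normal → L ≤ B → L = ⊥ ∨ L = B)
    (hnc : centralizer (B : Set G) ≠ ⊤) (hK : IsPiHall {p}ᶜ K) :
    B ⊓ centralizer (K : Set G) = ⊥ := by
  set C := centralizer (B : Set G) with hC
  have hs := QuotientGroup.mk'_surjective C
  have : Nontrivial (G ⧸ C) := QuotientGroup.nontrivial_iff.2 hnc
  -- a normal subgroup not inside `C` has no fixed points on `B`
  have key : ∀ L : Subgroup G, L.Normal → ¬ L ≤ C → B ⊓ centralizer (L : Set G) = ⊥ := by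
    intro L _ hL
    refine (hmin _ inferInstance inf_le_left).resolve_right fun e => hL ?_
    exact le_centralizer_iff.1 (inf_eq_left.1 e)
  have key2 : ∀ (L : Subgroup (G ⧸ C)) (S : Subgroup G), L.Normal → L ≠ ⊥ →
      L ≤ S.map (QuotientGroup.mk' C) → B ⊓ centralizer (S : Set G) = ⊥ := by
    intro L S _ hL hLS
    have h1 := key (L.comap (QuotientGroup.mk' C)) inferInstance (fun e => hL (by
      rw [← map_comap_eq_self_of_surjective hs L, map_mk'_eq_bot_iff]; exact e))
    rw [eq_bot_iff, ← h1]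
    refine le_inf inf_le_left (le_centralizer_iff.1 ((comap_mono hLS).trans ?_))
    rw [comap_map_mk']
    exact sup_le (le_centralizer_iff.1 inf_le_right) (centralizer_le inf_le_left)
  by_cases hB0 : B = ⊥
  · rw [hB0, bot_inf_eq]
  by_cases h0 : pPrimeCore p (G ⧸ C) = ⊥
  · exfalso
    obtain ⟨P⟩ : Nonempty (Sylow p G) := inferInstance
    refine Loc.inf_centralizer_ne_bot P.isPGroup' hB le_normalizer_of_normal hB0
      (key2 _ P inferInstance (pCore_ne_bot_of_pPrimeCore_eq_bot h0) ?_)
    exact pCore_le_sylow (P.mapSurjective hs)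
  · refine key2 _ K inferInstance h0 ?_
    rw [← piCore_compl_singleton hp.out, ← piCoreOf_top]
    exact HallOf.piCoreOf_le (isPiHallOf_top_iff.2 (isPiHall_map hK hs))

theorem inf_normalizer_hall_eq_bot [Finite G] [Group.IsSolvable G] {p : ℕ} [hp : Fact p.Prime]
    {B K : Subgroup G} [B.Normal] (hB : IsPGroup p B)
    (hmin : ∀ L : Subgroup G, L.Normal → L ≤ B → L = ⊥ ∨ L = B)
    (hnc : centralizer (B : Set G) ≠ ⊤) (hK : IsPiHall {p}ᶜ K) :
    B ⊓ normalizer (K : Set G) = ⊥ := by
  rw [inf_normalizer_eq_inf_centralizer le_normalizer_of_normal, inf_centralizer_hall_eq_bot hB hmin hnc hK]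
  rw [inf_comm]
  exact Loc.inf_eq_bot_of_isPGroup_of_coprime hB ((isPiHall_compl_singleton_iff hp.out).1 hK).1

theorem center_le_systemNormalizer (K : Nat.Primes → Subgroup G) : center G ≤ systemNormalizer K :=
  le_iInf fun _ => center_le_normalizer _

/-- System normalizers cover central and avoid eccentric chief factors. -/
theorem systemNormalizer_cover_avoid [Finite G] [Group.IsSolvable G] {K : Nat.Primes → Subgroup G}
    (hK : IsComplementSystem K) (A B : Subgroup G) [A.Normal] [hB : B.Normal] (hAB : A < B)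
    (hchief : ∀ N : Subgroup G, N.Normal → A ≤ N → N ≤ B → N = A ∨ N = B) :
    (⁅B, (⊤ : Subgroup G)⁆ ≤ A → B ≤ A ⊔ systemNormalizer K) ∧
      (¬ ⁅B, (⊤ : Subgroup G)⁆ ≤ A → B ⊓ systemNormalizer K ≤ A) := by
  have hs := QuotientGroup.mk'_surjective A
  have hc : ⁅B, (⊤ : Subgroup G)⁆ ≤ A ↔
      B.map (QuotientGroup.mk' A) ≤ centralizer ((⊤ : Subgroup (G ⧸ A)) : Set (G ⧸ A)) := by
    rw [← map_mk'_eq_bot_iff, map_commutator, map_top_of_surjective _ hs,
      commutator_eq_bot_iff_le_centralizer]
  rw [hc]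
  constructor
  · intro h
    rw [coe_top, centralizer_univ] at h
    have := h.trans (center_le_systemNormalizer fun p => (K p).map (QuotientGroup.mk' A))
    rwa [systemNormalizer_map hK hs, map_le_iff_le_comap, comap_map_mk', sup_comm] at this
  · intro h
    have := hB.map _ hs
    have hmin := minimal_normal_map_mk' hAB.le hchief
    obtain ⟨-, p, hp, hpow⟩ := elementary_of_minimal_normal
      (fun e => hAB.not_ge (map_mk'_eq_bot_iff.1 e)) hmin
    have := Fact.mk hp
    have h1 := inf_normalizer_hall_eq_bot (isPGroup_of_pow_eq_one hpow) hmin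
      (fun e => h (le_centralizer_iff.1 e.ge))
      (isComplementSystem_iff.1 (isComplementSystem_map hK hs) ⟨p, hp⟩)
    rw [← map_mk'_eq_bot_iff, eq_bot_iff, ← h1]
    refine (map_inf_le _ _ _).trans (inf_le_inf_left _ ?_)
    rw [← systemNormalizer_map hK hs]
    exact systemNormalizer_le _ _

theorem normalClosure_systemNormalizer [Finite G] [Group.IsSolvable G]
    {K : Nat.Primes → Subgroup G} (hK : IsComplementSystem K) :
    normalClosure ((systemNormalizer K : Subgroup G) : Set G) = ⊤ := by
  by_contra hne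
  set R := normalClosure ((systemNormalizer K : Subgroup G) : Set G) with hR
  have : Nontrivial (G ⧸ R) := QuotientGroup.nontrivial_iff.2 hne
  set N := (commutator (G ⧸ R)).comap (QuotientGroup.mk' R) with hN
  have hRN : R ≤ N := le_comap_mk' R _
  have hcN : commutator G ≤ N := by
    rw [hN, ← map_le_iff_le_comap, commutator_def, map_commutator]
    exact commutator_mono le_top le_top
  have h1 := systemNormalizer_map hK (QuotientGroup.mk'_surjective N)
  rw [map_mk'_eq_bot_iff.2 (le_normalClosure.trans hRN)] at h1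
  have h2 : center (G ⧸ N) = ⊤ := by
    rw [← commutator_eq_bot_iff_center_eq_top, commutator_def (G ⧸ N),
      ← map_top_of_surjective _ (QuotientGroup.mk'_surjective N), ← map_commutator,
      map_mk'_eq_bot_iff]
    exact hcN
  have h3 := center_le_systemNormalizer fun p => (K p).map (QuotientGroup.mk' N)
  rw [h1, h2, ← map_top_of_surjective _ (QuotientGroup.mk'_surjective N), le_bot_iff,
    map_mk'_eq_bot_iff, hN, ← map_le_iff_le_comap,
    map_top_of_surjective _ (QuotientGroup.mk'_surjective R)] at h3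
  exact (Group.IsSolvable.commutator_lt_top_of_nontrivial (G ⧸ R)).not_ge h3

section Carter

theorem isCarter_conj {C : Subgroup G} (h : IsCarterSubgroup C) (g : G) :
    IsCarterSubgroup (MulAut.conj g • C) :=
  have := h.1
  ⟨isNilpotent_map _ C, by rw [normalizer_conj_smul, h.2]⟩

theorem isCarter_subgroupOf {C H : Subgroup G} (h : IsCarterSubgroup C) (hCH : C ≤ H) :
    IsCarterSubgroup (C.subgroupOf H) :=
  have := h.1
  ⟨isNilpotent_subgroupOf C H, by rw [← subgroupOf_normalizer_eq hCH, h.2]⟩

theorem exists_conj_carter [Finite G] [Group.IsSolvable G] {C D : Subgroup G}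
    (hC : IsCarterSubgroup C) (hD : IsCarterSubgroup D) : ∃ g : G, MulAut.conj g • C = D :=
  S0045.result.2 C D hC.1 hC.2 hD.1 hD.2

theorem exists_conj_carter_in [Finite G] {C D H : Subgroup G} [Group.IsSolvable H]
    (hC : IsCarterSubgroup C) (hD : IsCarterSubgroup D) (hCH : C ≤ H) (hDH : D ≤ H) :
    ∃ g ∈ H, MulAut.conj g • C = D := by
  obtain ⟨g, hg⟩ := exists_conj_carter (isCarter_subgroupOf hC hCH) (isCarter_subgroupOf hD hDH)
  refine ⟨g, g.2, ?_⟩
  have := congrArg (Subgroup.map H.subtype) hg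
  rwa [map_subtype_conj_smul, map_subgroupOf_eq_of_le hCH, map_subgroupOf_eq_of_le hDH] at this

/-- Overgroups of Carter subgroups are self-normalising. -/
theorem normalizer_eq_of_carter_le [Finite G] {C H : Subgroup G} [Group.IsSolvable H]
    (hC : IsCarterSubgroup C) (hCH : C ≤ H) : normalizer (H : Set G) = H := by
  refine le_antisymm (fun g hg => ?_) le_normalizer
  obtain ⟨h, hh, e⟩ := exists_conj_carter_in (isCarter_conj hC g) hC
    ((conj_smul_mono g hCH).trans (conj_smul_eq_self_iff.2 hg).le) hCH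
  rw [conj_smul_conj_smul, conj_smul_eq_self_iff, hC.2] at e
  simpa using H.mul_mem (H.inv_mem hh) (hCH e)

theorem carter_sup_eq_top [Finite G] [Group.IsSolvable G] {C N : Subgroup G} [N.Normal]
    (hC : IsCarterSubgroup C) [Group.IsNilpotent (G ⧸ N)] : C ⊔ N = ⊤ := by
  have hs := QuotientGroup.mk'_surjective N
  by_contra hne
  have h1 : C.map (QuotientGroup.mk' N) < ⊤ := by
    refine lt_top_iff_ne_top.2 fun e => hne ?_
    rw [← comap_map_mk', e, comap_top]
  have h2 := Group.normalizerCondition_of_isNilpotent _ h1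
  have h3 := normalizer_eq_of_carter_le (H := C ⊔ N) hC le_sup_left
  rw [← comap_map_mk', ← comap_normalizer_eq_of_surjective _ hs] at h3
  exact h2.ne (comap_injective hs h3).symm

/-- A non-normal maximal subgroup containing a Hall `p'`-subgroup contains its normaliser. -/
theorem normalizer_hall_le [Finite G] [Group.IsSolvable G] {p : ℕ} [hp : Fact p.Prime]
    {M K : Subgroup G} (hM : IsCoatom M) (hn : ¬ M.Normal) (hK : IsPiHall {p}ᶜ K) (hKM : K ≤ M) :
    normalizer (K : Set G) ≤ M := by
  set R := M.normalCore with hR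
  have hs := QuotientGroup.mk'_surjective R
  have hRM : R ≤ M := M.normalCore_le
  have hM' := isCoatom_map_mk' hM hRM
  have e0 : (M.map (QuotientGroup.mk' R)).comap (QuotientGroup.mk' R) = M := by
    rw [comap_map_mk', sup_eq_left.2 hRM]
  have : Nontrivial (G ⧸ R) := QuotientGroup.nontrivial_iff.2 (ne_top_of_le_ne_top hM.1 hRM)
  obtain ⟨q, N, hq, hN, hN0, hab, -, hNq, hmin⟩ := exists_normal_elementary (G ⧸ R)
  have hNM : ¬ N ≤ M.map (QuotientGroup.mk' R) := by
    intro h
    apply hN0
    rw [← map_comap_eq_self_of_surjective hs N, map_mk'_eq_bot_iff]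
    exact normal_le_normalCore.2 ((comap_mono h).trans e0.le)
  have h1 := sup_eq_top_of_isCoatom hM' hNM
  have h2 : N ⊓ M.map (QuotientGroup.mk' R) = ⊥ :=
    (hmin _ (normal_inf_of_sup_eq_top h1) inf_le_left).resolve_right
      (fun e => hNM (inf_eq_left.1 e))
  have h3 := (isComplement'_of_inf_sup h2 h1).index_eq_card
  rw [index_map_mk' hRM] at h3
  have hNp : IsPGroup p N := by
    obtain ⟨-, k, hk⟩ := (isPiHall_compl_singleton_iff hp.out).1 hK
    obtain ⟨j, -, hj⟩ := (Nat.dvd_prime_pow hp.out).1 (hk ▸ index_dvd_of_le hKM)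
    exact IsPGroup.of_card (h3 ▸ hj)
  have h4 := inf_normalizer_hall_eq_bot hNp hmin (fun e => hn (by
    rw [← e0]
    refine Normal.comap (normal_of_le_normalizer_of_sup_eq_top ?_ le_normalizer h1) _
    exact (le_centralizer_iff.1 (le_top.trans e.ge)).trans (centralizer_le_normalizer _)))
    (isPiHall_map hK hs)
  intro g hg
  rw [← e0, mem_comap]
  have hg' := le_normalizer_map (QuotientGroup.mk' R) (mem_map_of_mem _ hg)
  obtain ⟨n, hn', m, hm, e⟩ := (mem_sup_left_of_le_normalizer le_normalizer_of_normal).1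
    (show QuotientGroup.mk' R g ∈ N ⊔ M.map (QuotientGroup.mk' R) from h1 ▸ mem_top _)
  suffices n = 1 by rw [← e, this, one_mul]; exact hm
  rw [← mem_bot, ← h4]
  refine ⟨hn', centralizer_le_normalizer _ fun k hk => ?_⟩
  have h5 : n⁻¹ * k * n * k⁻¹ ∈ N ⊓ M.map (QuotientGroup.mk' R) := by
    refine mem_inf.2 ⟨?_, mul_mem ?_ (inv_mem (map_mono hKM hk))⟩
    · rw [mul_assoc, mul_assoc, ← mul_assoc k]
      exact mul_mem (inv_mem hn') (hN.conj_mem n hn' k)
    · have h6 := map_mono hKM (conj_mem_of_le_normalizer' le_rfl hg' hk)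
      rw [← e] at h6
      convert mul_mem (mul_mem hm h6) (inv_mem hm) using 1
      group
  rw [h2, mem_bot] at h5
  calc k * n = n * (n⁻¹ * k * n * k⁻¹) * k := by group
    _ = _ := by rw [h5, mul_one]

theorem exists_index_eq_prime_pow [Finite G] [Group.IsSolvable G] {M : Subgroup G}
    (hM : IsCoatom M) : ∃ p k : ℕ, p.Prime ∧ M.index = p ^ k := by
  set R := M.normalCore with hR
  have hs := QuotientGroup.mk'_surjective R
  have hRM : R ≤ M := M.normalCore_le
  have hM' := isCoatom_map_mk' hM hRM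
  have : Nontrivial (G ⧸ R) := QuotientGroup.nontrivial_iff.2 (ne_top_of_le_ne_top hM.1 hRM)
  obtain ⟨q, N, hq, hN, hN0, hab, -, hNq, hmin⟩ := exists_normal_elementary (G ⧸ R)
  have hNM : ¬ N ≤ M.map (QuotientGroup.mk' R) := by
    intro h
    apply hN0
    rw [← map_comap_eq_self_of_surjective hs N, map_mk'_eq_bot_iff]
    exact normal_le_normalCore.2 ((comap_mono h).trans
      (by rw [comap_map_mk', sup_eq_left.2 hRM]))
  have h3 := (isProd_sup_of_le_normalizer (N := N) (H := M.map (QuotientGroup.mk' R))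
    le_normalizer_of_normal)
  rw [sup_eq_top_of_isCoatom hM' hNM] at h3
  have := Fact.mk hq
  obtain ⟨k, hk⟩ := hNq.exists_card_eq
  obtain ⟨j, -, hj⟩ := (Nat.dvd_prime_pow hq).1 (hk ▸ h3.index_dvd)
  exact ⟨q, j, hq, by rw [← index_map_mk' hRM, hj]⟩

private theorem carter_aux (n : ℕ) : ∀ (G : Type u) [Group G] [Finite G] [Group.IsSolvable G],
    Nat.card G = n → ∀ K : Nat.Primes → Subgroup G, IsComplementSystem K →
      ∃ C : Subgroup G, IsCarterSubgroup C ∧ systemNormalizer K ≤ C := by
  induction n using Nat.strong_induction_on with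
  | _ n ih =>
  intro G _ _ _ hn K hK
  obtain ⟨C₀, hC₀⟩ : ∃ C : Subgroup G, IsCarterSubgroup C := S0045.result.1
  by_cases h0 : C₀ = ⊤
  · exact ⟨C₀, hC₀, h0 ▸ le_top⟩
  obtain ⟨M₀, hM₀, hCM₀⟩ := exists_isCoatom_ge h0
  obtain ⟨p, k, hp, hk⟩ := exists_index_eq_prime_pow hM₀
  have := Fact.mk hp
  -- conjugate so that `K p ≤ M`
  obtain ⟨L, hL⟩ := (HallOK.of_isSolvable {p}ᶜ M₀).exists_hallOf
  have hL' : IsPiHall {p}ᶜ L := isPiHallOf_top_iff.1 (HallOf.trans hL le_top (by
    rw [relIndex_top_right, hk, compl_compl]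
    exact (IsPiNum.of_prime hp (Set.mem_singleton p)).pow k))
  obtain ⟨g, hg⟩ := (HallOK.of_isSolvable {p}ᶜ G).exists_conj_eq hL'
    (isComplementSystem_iff.1 hK ⟨p, hp⟩)
  have hC := isCarter_conj hC₀ g
  have hM := isCoatom_conj_smul hM₀ g
  have hCM := conj_smul_mono g hCM₀
  have hKM : K ⟨p, hp⟩ ≤ MulAut.conj g • M₀ := hg ▸ conj_smul_mono g hL.1
  rw [← index_conj_smul g] at hk
  generalize MulAut.conj g • M₀ = M at *
  generalize MulAut.conj g • C₀ = C at *
  have hnn : ¬ M.Normal := fun h => hM.1 (by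
    rw [← normalizer_eq_of_carter_le hC hCM, normalizer_eq_top_iff]; exact h)
  have hDM : systemNormalizer K ≤ M := (systemNormalizer_le K ⟨p, hp⟩).trans
    (normalizer_hall_le hM hnn (isComplementSystem_iff.1 hK ⟨p, hp⟩) hKM)
  have hK' : IsComplementSystem fun q => (K q).subgroupOf M := by
    refine isComplementSystem_iff.2 fun q => ?_
    have hq := isComplementSystem_iff.1 hK q
    by_cases e : q = ⟨p, hp⟩
    · subst e
      exact (isPiHallOf_iff_subgroupOf hKM).1 (HallOf.mono (isPiHallOf_top_iff.2 hq) hKM le_top)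
    · rw [isPiHall_iff] at hq ⊢
      refine ⟨hq.1.card_subgroupOf M, hq.2.of_dvd (relIndex_dvd_index_of_isProd
        (isProd_top_of_coprime_index ?_))⟩
      rw [hk, hK q]
      exact Nat.coprime_pow_primes _ _ hp q.2 (fun e' => e (Subtype.ext e'.symm))
  obtain ⟨C₁, hC₁, h1⟩ := ih _ (hn ▸ card_lt_of_ne_top hM.1) M rfl _ hK'
  obtain ⟨m, hm⟩ := exists_conj_carter (isCarter_subgroupOf hC hCM) hC₁
  refine ⟨MulAut.conj (m : G) • C, isCarter_conj hC m, fun x hx => ?_⟩
  rw [← map_subgroupOf_eq_of_le hCM, ← map_subtype_conj_smul, hm]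
  refine ⟨⟨x, hDM hx⟩, h1 (mem_systemNormalizer.2 fun q => ?_), rfl⟩
  exact le_normalizer_comap M.subtype (mem_systemNormalizer.1 hx q)

theorem exists_carter_ge_systemNormalizer [Finite G] [Group.IsSolvable G]
    {K : Nat.Primes → Subgroup G} (hK : IsComplementSystem K) :
    ∃ C : Subgroup G, IsCarterSubgroup C ∧ systemNormalizer K ≤ C :=
  carter_aux _ G rfl K hK

theorem isComplementSystem_conj {K : Nat.Primes → Subgroup G} (hK : IsComplementSystem K) (g : G) :
    IsComplementSystem fun p => MulAut.conj g • K p := fun p => by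
  rw [index_conj_smul, hK p]

end Carter

end Cfsg.Agent.SolvStr
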